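import Cfsg.Agent.H10.SuzT.S6.RChk0
import Cfsg.Agent.H10.SuzT.S6.RChk1

set_option autoImplicit false
set_option linter.all false

namespace Cfsg.Agent.H10.SuzT

open Cfsg.Agent.H35 Cfsg.Spor

theorem s6_rall : ∀ p, p < 2271 → s6_rf p = true := by
  apply allR_blocks s6_rf 2271 10 3 _ (by decide)
  intro k hk
  interval_cases k
  · exact s6_rchk_0
  · exact s6_rchk_1
  · exact s6_rchk_2

theorem s6_circ_ok : circChk (fullW s6_rws s6_prels) s6_circT 0 s6_ccert = true := by decide +kernel
theorem s6_hc_ok : allR (fun c => hcChk s6_rsw s6_hc1T s6_hc2T c) 5 3 0 = true := by decide +kernel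
theorem s6_h0 : RData.aord (s6_rd.ent 0 1) = 0 := by decide +kernel

end Cfsg.Agent.H10.SuzT
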